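import Cfsg.Agent.Coprime.Generation

/-!
Counting lemmas for groups under a coprime action of a noncyclic abelian group.

* `card_sup_le`: `|K ⊔ H| ≤ |K| * [H : K ⊓ H]` when `H` normalizes `K`;
* `card_le_mul_prod_relIndex`: the same for a join over a finite set, above a derived subgroup;
* `card_le_prod_centralizer`: `|P| ≤ ∏ |C_P(a)|` for solvable `P`;
* `card_le_of_centralizer_le`: a bound for the order of a group in which every `C(a)`, `a ≠ 1`,
  has order at most `N`.
-/

set_option autoImplicit false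

open scoped commutatorElement

namespace CfsgLib.CoprimeDerived

open CfsgLib.Coprime

variable {Γ : Type*} [Group Γ] [Finite Γ]

/-- `|K ⊔ H| ≤ |K| * [H : K ⊓ H]` when `H` normalizes `K`. -/
theorem card_sup_le {K H : Subgroup Γ} (hH : H ≤ Subgroup.normalizer (K : Set Γ)) :
    Nat.card (K ⊔ H : Subgroup Γ) ≤ Nat.card K * K.relIndex H := by
  classical
  rw [Subgroup.relIndex, Subgroup.index_eq_card, ← Nat.card_prod]
  refine Nat.card_le_card_of_surjective
    (fun x : K × (H ⧸ K.subgroupOf H) => (⟨(x.1 : Γ) * ((x.2.out : H) : Γ)⁻¹,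
      Subgroup.mul_mem_sup x.1.2 (inv_mem x.2.out.2)⟩ : (K ⊔ H : Subgroup Γ))) ?_
  rintro ⟨g, hg⟩
  have hg' : g ∈ ((K ⊔ H : Subgroup Γ) : Set Γ) := hg
  rw [Subgroup.coe_mul_of_right_le_normalizer_left K H hH] at hg'
  obtain ⟨k, hk, h, hh, rfl⟩ := hg'
  have hc : ((QuotientGroup.mk (⟨h, hh⟩⁻¹ : H) : H ⧸ K.subgroupOf H).out)⁻¹ * ⟨h, hh⟩⁻¹ ∈
      K.subgroupOf H := QuotientGroup.eq.mp (QuotientGroup.out_eq' _)
  rw [Subgroup.mem_subgroupOf] at hc
  refine ⟨⟨⟨_, mul_mem hk (inv_mem hc)⟩, (QuotientGroup.mk (⟨h, hh⟩⁻¹ : H))⟩, Subtype.ext ?_⟩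
  push_cast
  group

/-- The join of a subgroup containing `⁅K, K⁆` with finitely many subgroups of `K`. -/
theorem card_le_mul_prod_relIndex {ι : Type*} {K N : Subgroup Γ} (hN : N ≤ K) (hK : ⁅K, K⁆ ≤ N)
    (s : Finset ι) (R : ι → Subgroup Γ) (hR : ∀ i ∈ s, R i ≤ K) :
    Nat.card (N ⊔ ⨆ i ∈ s, R i : Subgroup Γ) ≤ Nat.card N * ∏ i ∈ s, N.relIndex (R i) := by
  classical
  induction s using Finset.induction_on with
  | empty => simp
  | insert i s hi ih =>
    have hR' : ∀ j ∈ s, R j ≤ K := fun j hj => hR j (Finset.mem_insert_of_mem hj)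
    set M := N ⊔ ⨆ j ∈ s, R j with hM
    have hMK : M ≤ K := sup_le hN (iSup₂_le hR')
    have hRi : R i ≤ Subgroup.normalizer (M : Set Γ) :=
      le_normalizer_of_conj_mem fun a ha g hg => by
        have : ⁅a, g⁆ ∈ M := Subgroup.mem_sup_left
          (hK (Subgroup.commutator_mem_commutator (hR i (Finset.mem_insert_self _ _) ha) (hMK hg)))
        rw [show a * g * a⁻¹ = ⁅a, g⁆ * g by rw [commutatorElement_def]; group]
        exact mul_mem this hg
    have e : N ⊔ ⨆ j ∈ insert i s, R j = M ⊔ R i := by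
      rw [hM, Finset.iSup_insert, sup_assoc, sup_comm (R i)]
    rw [e, Finset.prod_insert hi]
    calc Nat.card (M ⊔ R i : Subgroup Γ) ≤ Nat.card M * M.relIndex (R i) := card_sup_le hRi
      _ ≤ (Nat.card N * ∏ j ∈ s, N.relIndex (R j)) * N.relIndex (R i) :=
          Nat.mul_le_mul (ih hR') (Subgroup.relIndex_le_of_le_left le_sup_left
            (by
              rw [Subgroup.relIndex]
              exact Subgroup.index_ne_zero_of_finite))
      _ = Nat.card N * (N.relIndex (R i) * ∏ j ∈ s, N.relIndex (R j)) := by ring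

theorem relIndex_le_card (K H : Subgroup Γ) : K.relIndex H ≤ Nat.card H := by
  rw [Subgroup.relIndex]
  exact Nat.le_of_dvd Nat.card_pos (Subgroup.index_dvd_card _)

theorem card_inf_mul_relIndex (K H : Subgroup Γ) :
    Nat.card (K ⊓ H : Subgroup Γ) * K.relIndex H = Nat.card H := by
  rw [← Subgroup.inf_relIndex_right, Subgroup.relIndex,
    ← Nat.card_congr (Subgroup.subgroupOfEquivOfLe (inf_le_right : K ⊓ H ≤ H)).toEquiv]
  exact Subgroup.card_mul_index _

/-- A group generated by few elements of bounded order with small derived subgroup is small. -/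
theorem card_le_of_generators {K : Subgroup Γ} {Y : Set Γ} (hY : Subgroup.closure Y = K) {e k c : ℕ}
    (he : 0 < e) (hord : ∀ y ∈ Y, y ^ e = 1) (hk : Y.ncard ≤ k) (hc : Nat.card (⁅K, K⁆ : Subgroup Γ) ≤ c) :
    Nat.card K ≤ c * e ^ k := by
  classical
  have hYf : Y.Finite := Set.toFinite Y
  have hYK : ∀ y ∈ hYf.toFinset, Subgroup.zpowers y ≤ K := fun y hy =>
    Subgroup.zpowers_le_of_mem (hY ▸ Subgroup.subset_closure (hYf.mem_toFinset.mp hy))
  have hle : K ≤ ⁅K, K⁆ ⊔ ⨆ y ∈ hYf.toFinset, Subgroup.zpowers y := by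
    refine le_trans hY.ge ((Subgroup.closure_le _).mpr fun y hy => Subgroup.mem_sup_right ?_)
    exact Subgroup.mem_iSup_of_mem y (Subgroup.mem_iSup_of_mem (hYf.mem_toFinset.mpr hy)
      (Subgroup.mem_zpowers y))
  refine (Subgroup.card_le_of_le hle).trans ((card_le_mul_prod_relIndex (K := K)
    (Subgroup.commutator_le_self K) le_rfl _ _ hYK).trans (Nat.mul_le_mul hc ?_))
  refine le_trans (Finset.prod_le_pow_card _ _ e fun y hy => ?_) (Nat.pow_le_pow_right he ?_)
  · refine (relIndex_le_card _ _).trans ?_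
    rw [Nat.card_zpowers]
    exact orderOf_le_of_pow_eq_one he (hord y (hYf.mem_toFinset.mp hy))
  · rwa [← Set.ncard_eq_toFinset_card _ hYf]

/-- The centralizers of a noncyclic abelian group bound a solvable group. -/
theorem card_le_prod_centralizer {A : Subgroup Γ} (hA : IsMulCommutative A) (hnc : ¬ IsCyclic A)
    (s : Finset Γ) (hs : ∀ a ∈ A, a ≠ 1 → a ∈ s) :
    ∀ {P : Subgroup Γ}, Group.IsSolvable P → A ≤ Subgroup.normalizer (P : Set Γ) →
      (Nat.card A).Coprime (Nat.card P) →
      Nat.card P ≤ ∏ a ∈ s, Nat.card (P ⊓ Subgroup.centralizer ({a} : Set Γ) : Subgroup Γ) := by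
  classical
  intro P
  induction P using WellFoundedLT.induction with
  | _ P ih =>
    intro hsol hAP hcop
    rcases eq_or_ne P ⊥ with rfl | hP
    · simp
    have hlt := commutator_self_lt hsol hP
    have hAM : A ≤ Subgroup.normalizer ((⁅P, P⁆ : Subgroup Γ) : Set Γ) :=
      le_normalizer_of_conj_mem fun a ha g hg => by
        have := Subgroup.mem_map_of_mem (MulAut.conj a).toMonoidHom hg
        rw [Subgroup.map_commutator] at this
        have e : P.map (MulAut.conj a).toMonoidHom ≤ P := by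
          rintro _ ⟨x, hx, rfl⟩
          exact conj_mem_of_le_normalizer hAP ha hx
        exact Subgroup.commutator_mono e e this
    have hbound := ih _ hlt (isSolvable_of_le hlt.le hsol) hAM (coprime_of_le le_rfl hlt.le hcop)
    have hle : P ≤ ⁅P, P⁆ ⊔ ⨆ a ∈ s, P ⊓ Subgroup.centralizer ({a} : Set Γ) :=
      le_of_centralizers hA hnc hAP hcop fun a ha ha1 =>
        le_sup_of_le_right (le_iSup₂ (f := fun a (_ : a ∈ s) => P ⊓ Subgroup.centralizer ({a} : Set Γ))
          a (hs a ha ha1))
    refine (Subgroup.card_le_of_le hle).trans ((card_le_mul_prod_relIndex (K := P) hlt.le le_rfl _ _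
      fun a _ => inf_le_left).trans ((Nat.mul_le_mul_right _ hbound).trans ?_))
    rw [← Finset.prod_mul_distrib]
    refine le_of_eq (Finset.prod_congr rfl fun a _ => ?_)
    rw [← card_inf_mul_relIndex (⁅P, P⁆ : Subgroup Γ) (P ⊓ Subgroup.centralizer ({a} : Set Γ)),
      ← inf_assoc, inf_eq_left.mpr hlt.le]

/-- If all `C_H(a)`, `a ≠ 1`, have order at most `N` then `|H|` is bounded. -/
theorem card_le_of_centralizer_le {A H : Subgroup Γ} (hA : IsMulCommutative A) (hnc : ¬ IsCyclic A)
    (hAH : A ≤ Subgroup.normalizer (H : Set Γ)) (hcop : (Nat.card A).Coprime (Nat.card H)) {N : ℕ}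
    (hN : 0 < N)
    (h : ∀ a ∈ A, a ≠ 1 → Nat.card (H ⊓ Subgroup.centralizer ({a} : Set Γ) : Subgroup Γ) ≤ N) :
    Nat.card H ≤ (N ^ Nat.card A) ^ (N + 1) := by
  classical
  set s : Finset Γ := (Set.toFinite ((A : Set Γ) \ {1})).toFinset with hs_def
  have hs : ∀ a ∈ A, a ≠ 1 → a ∈ s := fun a ha ha1 => by simp [hs_def, ha, ha1]
  have hscard : s.card ≤ Nat.card A := by
    rw [hs_def, ← Set.ncard_eq_toFinset_card]
    exact (Set.ncard_le_ncard Set.sdiff_subset).trans (le_of_eq (Nat.card_coe_set_eq _).symm)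
  set n := Nat.card H with hn
  have hpos : 1 ≤ N ^ Nat.card A := Nat.one_le_pow _ _ hN
  have key : ∀ p ∈ n.primeFactors, p ≤ N ∧ p ^ n.factorization p ≤ N ^ Nat.card A := by
    intro p hp
    have hpp := Nat.prime_of_mem_primeFactors hp
    haveI := Fact.mk hpp
    obtain ⟨P, hP⟩ := exists_invariant_sylow (p := p) hAH hcop
      (Or.inl (isSolvable_of_isMulCommutative hA))
    set P' := (P : Subgroup H).map H.subtype with hP'
    have hcardP : Nat.card P' = p ^ n.factorization p := by
      rw [hP', Subgroup.card_map_of_injective H.subtype_injective, P.card_eq_multiplicity]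
    have hP'H : P' ≤ H := Subgroup.map_subtype_le _
    have hPg : IsPGroup p P' := P.isPGroup'.map _
    have hcop' : (Nat.card A).Coprime (Nat.card P') := coprime_of_le le_rfl hP'H hcop
    refine ⟨?_, ?_⟩
    · by_contra hlt
      have : P' ≤ ⊥ := le_of_centralizers hA hnc hP hcop' fun a ha ha1 => by
        rw [le_bot_iff]
        by_contra hne
        obtain ⟨k, hk⟩ := (IsPGroup.iff_card (p := p)).mp (hPg.to_le inf_le_left :
          IsPGroup p (P' ⊓ Subgroup.centralizer ({a} : Set Γ) : Subgroup Γ))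
        have h1 := Subgroup.one_lt_card_iff_ne_bot _ |>.mpr hne
        have h2 := (Subgroup.card_le_of_le (inf_le_inf_right _ hP'H)).trans (h a ha ha1)
        rcases k with _ | k
        · rw [pow_zero] at hk; omega
        · rw [pow_succ] at hk
          have : p ≤ p ^ k * p := Nat.le_mul_of_pos_left _ (pow_pos hpp.pos _)
          omega
      rw [le_bot_iff] at this
      rw [this, Subgroup.card_bot] at hcardP
      have : 1 ≤ n.factorization p :=
        Nat.Prime.factorization_pos_of_dvd hpp Nat.card_pos.ne' (Nat.dvd_of_mem_primeFactors hp)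
      have := Nat.pow_le_pow_right hpp.pos this
      have := hpp.two_le
      simp at *
      omega
    · rw [← hcardP]
      refine (card_le_prod_centralizer hA hnc s hs (isSolvable_of_isPGroup hPg) hP hcop').trans ?_
      refine le_trans (Finset.prod_le_pow_card _ _ N fun a ha => ?_) (Nat.pow_le_pow_right hN hscard)
      simp [hs_def] at ha
      exact (Subgroup.card_le_of_le (inf_le_inf_right _ hP'H)).trans (h a ha.1 ha.2)
  calc n = ∏ p ∈ n.primeFactors, p ^ n.factorization p := by
        conv_lhs => rw [← Nat.prod_factorization_pow_eq_self (n := n) Nat.card_pos.ne']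
        rfl
    _ ≤ (N ^ Nat.card A) ^ n.primeFactors.card :=
        Finset.prod_le_pow_card _ _ _ fun p hp => (key p hp).2
    _ ≤ (N ^ Nat.card A) ^ (N + 1) := by
        refine Nat.pow_le_pow_right hpos ?_
        rw [← Finset.card_range (N + 1)]
        exact Finset.card_le_card fun p hp => Finset.mem_range.mpr (Nat.lt_succ_of_le (key p hp).1)

end CfsgLib.CoprimeDerived
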