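import Cfsg.Agent.CoprimeDerived.Counting
import Mathlib.GroupTheory.Schreier
import Mathlib.Data.Set.Card.Arithmetic

/-!
An elementary abelian group `A` of order `q ^ 3` acting coprimely on `G` such that the derived
subgroup of every `C_G(a)`, `a ≠ 1`, has order at most `m`: then `|G'| ≤ bound q m`.

The proof does not use the classification: with `X` the set of elements whose centralizer in `A`
has order at least `q ^ 2`, the subgroup `D` generated by all `C_G(a)'` is normal, contains `G'`,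
and `G / C_G(D)` has bounded fixed-point subgroups, so bounded order; Schur's theorem finishes.
-/

set_option autoImplicit false

open scoped commutatorElement

namespace CfsgLib.CoprimeDerived

open CfsgLib.Coprime

/-- The bound on the quotient by the centralizer of the derived fixed points. -/
def quotientBound (q m : ℕ) : ℕ :=
  ((m * Nat.factorial ((q ^ 3 * m) ^ (q ^ 3 * m)) ^ ((q ^ 3 * m) ^ (q ^ 3 * m))) ^ q ^ 3) ^
    (m * Nat.factorial ((q ^ 3 * m) ^ (q ^ 3 * m)) ^ ((q ^ 3 * m) ^ (q ^ 3 * m)) + 1)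

/-- The bound on the derived subgroup. -/
def derivedBound (q m : ℕ) : ℕ :=
  (Finset.range (quotientBound q m * quotientBound q m + 1)).sup Subgroup.cardCommutatorBound *
    Nat.factorial m ^ (q ^ 3 * m)

variable {Γ : Type*} [Group Γ] [Finite Γ]

/-- The elements of `G` centralized by a subgroup of `A` of index at most `q`. -/
def wideSet (A G : Subgroup Γ) (q : ℕ) : Set Γ :=
  {g | g ∈ G ∧ q ^ 2 ≤ Nat.card (A ⊓ Subgroup.centralizer ({g} : Set Γ) : Subgroup Γ)}

theorem wideSet_zpow {A G : Subgroup Γ} {q : ℕ} {g : Γ} (hg : g ∈ wideSet A G q) (k : ℤ) :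
    g ^ k ∈ wideSet A G q := by
  refine ⟨zpow_mem hg.1 k, hg.2.trans (Subgroup.card_le_of_le (inf_le_inf_left A ?_))⟩
  intro a ha
  rw [Subgroup.mem_centralizer_singleton_iff] at ha ⊢
  exact (Commute.zpow_right (h := ha) k)

theorem exists_common {A G : Subgroup Γ} {q : ℕ} (hq : 1 < q) (hA : Nat.card A = q ^ 3) {x y : Γ}
    (hx : x ∈ wideSet A G q) (hy : y ∈ wideSet A G q) :
    ∃ a ∈ A, a ≠ 1 ∧ a * x = x * a ∧ a * y = y * a := by
  set U := A ⊓ Subgroup.centralizer ({x} : Set Γ) with hU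
  set V := A ⊓ Subgroup.centralizer ({y} : Set Γ) with hV
  by_contra hno
  push Not at hno
  have hd : Disjoint U V := by
    rw [Subgroup.disjoint_def]
    intro a ha hb
    by_contra h1
    exact hno a ha.1 h1 (Subgroup.mem_centralizer_singleton_iff.mp ha.2)
      (Subgroup.mem_centralizer_singleton_iff.mp hb.2)
  have hle : Nat.card U * Nat.card V ≤ Nat.card A := by
    rw [← Nat.card_prod]
    refine Nat.card_le_card_of_injective
      (fun u : U × V => (⟨(u.1 : Γ) * u.2, mul_mem u.1.2.1 u.2.2.1⟩ : A)) ?_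
    intro u v huv
    exact Subgroup.mul_injective_of_disjoint hd (congrArg Subtype.val huv)
  have h4 : q ^ 2 * q ^ 2 ≤ q ^ 3 := hA ▸ (Nat.mul_le_mul hx.2 hy.2).trans hle
  rw [← pow_add] at h4
  exact absurd ((Nat.pow_le_pow_iff_right hq).mp h4) (by norm_num)

variable {A G : Subgroup Γ} {q : ℕ}

/-- An invariant subgroup of `G` is generated by its wide elements. -/
theorem le_closure_wide (hq : q.Prime) (hA : Nat.card A = q ^ 3) (hAc : IsMulCommutative A)
    (hAe : ∀ a ∈ A, a ^ q = 1) (hcop : (Nat.card A).Coprime (Nat.card G)) {W : Subgroup Γ}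
    (hWG : W ≤ G) (hAW : A ≤ Subgroup.normalizer (W : Set Γ)) :
    W ≤ Subgroup.closure ((W : Set Γ) ∩ wideSet A G q) := by
  refine le_of_cocyclic hAc hAW (coprime_of_le le_rfl hWG hcop) fun B hBA ⟨a, ha, hsup⟩ g hg => ?_
  obtain ⟨hgW, hgB⟩ := Subgroup.mem_inf.mp hg
  refine Subgroup.subset_closure ⟨hgW, hWG hgW, ?_⟩
  have hBle : B ≤ A ⊓ Subgroup.centralizer ({g} : Set Γ) := le_inf hBA fun b hb =>
    Subgroup.mem_centralizer_singleton_iff.mpr (Subgroup.mem_centralizer_iff.mp hgB b hb)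
  refine le_trans ?_ (Subgroup.card_le_of_le hBle)
  have hnorm : Subgroup.zpowers a ≤ Subgroup.normalizer (B : Set Γ) :=
    le_normalizer_of_conj_mem fun c hc b hb => by
      have hcA : c ∈ A := Subgroup.zpowers_le_of_mem ha hc
      rwa [setLike_mul_comm hcA (hBA hb), mul_inv_cancel_right]
  have h1 := card_sup_le hnorm
  rw [hsup, hA] at h1
  have h2 : B.relIndex (Subgroup.zpowers a) ≤ q := (relIndex_le_card _ _).trans (by
    rw [Nat.card_zpowers]; exact orderOf_le_of_pow_eq_one hq.pos (hAe a ha))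
  exact Nat.le_of_mul_le_mul_right (le_trans (le_of_eq (pow_succ q 2).symm)
    (h1.trans (Nat.mul_le_mul_left _ h2))) hq.pos

theorem not_isCyclic_of_exponent (hq : q.Prime) (hA : Nat.card A = q ^ 3)
    (hAe : ∀ a ∈ A, a ^ q = 1) : ¬ IsCyclic A := by
  intro hc
  obtain ⟨x, hx⟩ := IsCyclic.exists_ofOrder_eq_natCard (α := A)
  have h1 := Nat.le_of_dvd hq.pos (orderOf_dvd_of_pow_eq_one (n := q) (Subtype.ext (by
    simpa using hAe x x.2) : x ^ q = 1))
  rw [hx, hA] at h1
  have : q ^ 2 ≤ q ^ 3 := Nat.pow_le_pow_right hq.pos (by norm_num)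
  have : q * 2 ≤ q * q := Nat.mul_le_mul_left q hq.two_le
  rw [pow_two] at *
  have := hq.pos
  omega

/-- The main internal statement. -/
theorem card_commutator_le (hq : q.Prime) [G.Normal] (hGA : G ⊔ A = ⊤) (hA : Nat.card A = q ^ 3)
    (hAc : IsMulCommutative A) (hAe : ∀ a ∈ A, a ^ q = 1) (hqG : ¬ q ∣ Nat.card G) {m : ℕ}
    (hm : 0 < m)
    (h : ∀ a ∈ A, a ≠ 1 → Nat.card (⁅G ⊓ Subgroup.centralizer ({a} : Set Γ),
      G ⊓ Subgroup.centralizer ({a} : Set Γ)⁆ : Subgroup Γ) ≤ m) :
    Nat.card (⁅G, G⁆ : Subgroup Γ) ≤ derivedBound q m := by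
  classical
  have hcop : (Nat.card A).Coprime (Nat.card G) := by
    rw [hA]; exact Nat.Coprime.pow_left _ ((hq.coprime_iff_not_dvd).mpr hqG)
  have hnc := not_isCyclic_of_exponent hq hA hAe
  have hAG : A ≤ Subgroup.normalizer (G : Set Γ) := Subgroup.le_normalizer_of_normal
  set C : Γ → Subgroup Γ := fun a => G ⊓ Subgroup.centralizer ({a} : Set Γ) with hC
  have hAC : ∀ a ∈ A, A ≤ Subgroup.normalizer (C a : Set Γ) := fun a ha =>
    le_normalizer_inf' hAG (le_normalizer_of_conj_mem fun c hc x hx => by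
      rw [Subgroup.mem_centralizer_singleton_iff] at hx ⊢
      have hac : Commute a c := setLike_mul_comm ha hc
      have hax : Commute a x := hx.symm
      exact ((hac.mul_right hax).mul_right hac.inv_right).symm)
  set S : Set Γ := {s | ∃ a ∈ A, a ≠ 1 ∧ s ∈ (⁅C a, C a⁆ : Subgroup Γ)} with hS
  set X := wideSet A G q with hX
  set T := S ∩ X with hT
  set D := Subgroup.closure T with hD
  set M := q ^ 3 * m with hM
  have hM1 : 0 < M := Nat.mul_pos (pow_pos hq.pos 3) hm
  have hScard : S.ncard ≤ M := by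
    have hAf := Set.toFinite ((A : Set Γ) \ {1})
    refine (Set.ncard_le_ncard (t := ⋃ a ∈ hAf.toFinset, ((⁅C a, C a⁆ : Subgroup Γ) : Set Γ))
      (fun s hs => by
        obtain ⟨a, ha, ha1, hs⟩ := hs
        exact Set.mem_iUnion₂.mpr ⟨a, hAf.mem_toFinset.mpr ⟨ha, ha1⟩, hs⟩)).trans ?_
    refine (Finset.set_ncard_biUnion_le _ _).trans ((Finset.sum_le_card_nsmul _ _ m ?_).trans ?_)
    · intro a ha
      rw [Set.Finite.mem_toFinset] at ha
      simpa [← Nat.card_coe_set_eq] using h a ha.1 ha.2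
    · rw [smul_eq_mul, ← Set.ncard_eq_toFinset_card, hM, ← hA]
      exact Nat.mul_le_mul_right _ ((Set.ncard_le_ncard Set.sdiff_subset).trans
        (le_of_eq (Nat.card_coe_set_eq _).symm))
  have hTcard : T.ncard ≤ M := (Set.ncard_le_ncard Set.inter_subset_left).trans hScard
  have hCD : ∀ a ∈ A, a ≠ 1 → (⁅C a, C a⁆ : Subgroup Γ) ≤ D := by
    intro a ha ha1
    have hle : (⁅C a, C a⁆ : Subgroup Γ) ≤ C a := Subgroup.commutator_le_self _
    have hinv : A ≤ Subgroup.normalizer ((⁅C a, C a⁆ : Subgroup Γ) : Set Γ) :=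
      (hAC a ha).trans fun c hc => by
        have := le_normalizer_of_conj_mem (A := Subgroup.normalizer (C a : Set Γ))
          (G := (⁅C a, C a⁆ : Subgroup Γ)) (fun d hd g hg => by
            have hm' := Subgroup.mem_map_of_mem (MulAut.conj d).toMonoidHom hg
            rw [Subgroup.map_commutator] at hm'
            have e : (C a).map (MulAut.conj d).toMonoidHom ≤ C a := by
              rintro _ ⟨x, hx, rfl⟩
              exact conj_mem_of_le_normalizer le_rfl hd hx
            exact Subgroup.commutator_mono e e hm')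
        exact this hc
    exact (le_closure_wide hq hA hAc hAe hcop (hle.trans inf_le_left) hinv).trans
      (Subgroup.closure_mono fun s hs => ⟨⟨a, ha, ha1, hs.1⟩, hs.2⟩)
  have hXS : ∀ x ∈ X, ∀ y ∈ X, ⁅x, y⁆ ∈ S := fun x hx y hy => by
    obtain ⟨a, ha, ha1, hax, hay⟩ := exists_common hq.one_lt hA hx hy
    exact ⟨a, ha, ha1, Subgroup.commutator_mem_commutator
      ⟨hx.1, Subgroup.mem_centralizer_singleton_iff.mpr hax.symm⟩
      ⟨hy.1, Subgroup.mem_centralizer_singleton_iff.mpr hay.symm⟩⟩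
  have hSD : ∀ s ∈ S, s ∈ D := fun s ⟨a, ha, ha1, hs⟩ => hCD a ha ha1 hs
  have hGX : G = Subgroup.closure X := le_antisymm
    ((le_closure_wide hq hA hAc hAe hcop le_rfl hAG).trans
      (Subgroup.closure_mono Set.inter_subset_right))
    ((Subgroup.closure_le _).mpr fun x hx => hx.1)
  have hDG : D ≤ G := (Subgroup.closure_le _).mpr fun t ht => ht.2.1
  have hDn : D.Normal := by
    have hmap : ∀ g : Γ, (∀ t ∈ T, g * t * g⁻¹ ∈ D) → ∀ d ∈ D, g * d * g⁻¹ ∈ D := fun g hg d hd => by
      have : D.map (MulAut.conj g).toMonoidHom ≤ D := by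
        rw [hD, MonoidHom.map_closure, Subgroup.closure_le]
        rintro _ ⟨t, ht, rfl⟩
        exact hg t ht
      exact this (Subgroup.mem_map_of_mem _ hd)
    have h1 : G ≤ Subgroup.normalizer (D : Set Γ) := by
      rw [hGX, Subgroup.closure_le]
      have hconj : ∀ x ∈ X, ∀ t ∈ T, x * t * x⁻¹ ∈ D := fun x hx t ht => by
        rw [show x * t * x⁻¹ = ⁅x, t⁆ * t by rw [commutatorElement_def]; group]
        exact mul_mem (hSD _ (hXS x hx t ht.2)) (Subgroup.subset_closure ht)
      intro x hx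
      refine Subgroup.mem_normalizer_iff.mpr fun g => ⟨hmap x (hconj x hx) g, fun hg => ?_⟩
      have hxi : x⁻¹ ∈ X := by simpa using wideSet_zpow hx (-1)
      simpa [mul_assoc] using hmap x⁻¹ (hconj _ hxi) _ hg
    have h2 : A ≤ Subgroup.normalizer (D : Set Γ) := le_normalizer_of_conj_mem fun c hc => hmap c
      fun t ht => by
        obtain ⟨⟨a, ha, ha1, hs⟩, -⟩ := ht
        refine hCD a ha ha1 ?_
        have hm' := Subgroup.mem_map_of_mem (MulAut.conj c).toMonoidHom hs
        rw [Subgroup.map_commutator] at hm'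
        have e : (C a).map (MulAut.conj c).toMonoidHom ≤ C a := by
          rintro _ ⟨x, hx, rfl⟩
          exact conj_mem_of_le_normalizer (hAC a ha) hc hx
        exact Subgroup.commutator_mono e e hm'
    exact Subgroup.normalizer_eq_top_iff.mp (top_le_iff.mp (hGA ▸ sup_le h1 h2))
  have hGD : (⁅G, G⁆ : Subgroup Γ) ≤ D := by
    set K : Γ → Subgroup Γ := fun g => (Subgroup.centralizer
      ({(g : Γ ⧸ D)} : Set (Γ ⧸ D))).comap (QuotientGroup.mk' D) with hKdef
    have hXK : ∀ x ∈ X, ∀ y ∈ X, y ∈ K x := fun x hx y hy => by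
      simp only [hKdef, Subgroup.mem_comap, QuotientGroup.mk'_apply,
        Subgroup.mem_centralizer_singleton_iff]
      rw [← commutatorElement_eq_one_iff_mul_comm]
      exact (QuotientGroup.eq_one_iff _).mpr (hSD _ (hXS _ hy _ hx))
    have hsymm : ∀ x y : Γ, y ∈ K x → x ∈ K y := fun x y hxy => by
      simp only [hKdef, Subgroup.mem_comap, QuotientGroup.mk'_apply,
        Subgroup.mem_centralizer_singleton_iff] at hxy ⊢
      exact hxy.symm
    have h1 : ∀ g ∈ G, ∀ x ∈ X, g ∈ K x := fun g hg x hx =>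
      (hGX.le.trans ((Subgroup.closure_le _).mpr (hXK x hx))) hg
    rw [Subgroup.commutator_le]
    intro g hg k hk
    have h2 : G ≤ K k := hGX.le.trans ((Subgroup.closure_le _).mpr fun x hx => hsymm _ _ (h1 k hk x hx))
    have := h2 hg
    simp only [hKdef, Subgroup.mem_comap, QuotientGroup.mk'_apply,
      Subgroup.mem_centralizer_singleton_iff] at this
    rw [← commutatorElement_eq_one_iff_mul_comm] at this
    exact (QuotientGroup.eq_one_iff _).mp this
  -- the quotient by the centralizer of `D`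
  set Z := G ⊓ Subgroup.centralizer (D : Set Γ) with hZ
  have hZn : Z.Normal := by
    have : (Subgroup.centralizer (D : Set Γ)).Normal := Subgroup.normalizer_eq_top_iff.mp
      (top_le_iff.mp (le_normalizer_centralizer (A := ⊤) (Subgroup.le_normalizer_of_normal)))
    infer_instance
  set π := QuotientGroup.mk' Z with hπ
  have hcopZ : (Nat.card A).Coprime (Nat.card Z) := coprime_of_le le_rfl inf_le_left hcop
  set N1 := M ^ M with hN1
  have hN1pos : 0 < N1 := pow_pos hM1 M
  have himg : (π '' X).ncard ≤ N1 := by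
    let g : (π '' X) → (T → S) := fun y t =>
      ⟨⁅Classical.choose y.2, (t : Γ)⁆, hXS _ (Classical.choose_spec y.2).1 _ t.2.2⟩
    have hg : Function.Injective g := by
      intro y₁ y₂ he
      obtain ⟨hx₁, he₁⟩ := Classical.choose_spec y₁.2
      obtain ⟨hx₂, he₂⟩ := Classical.choose_spec y₂.2
      set x₁ := Classical.choose y₁.2 with hx₁d
      set x₂ := Classical.choose y₂.2 with hx₂d
      have ht : T ⊆ (Subgroup.centralizer ({x₂⁻¹ * x₁} : Set Γ) : Set Γ) := fun t ht => by
        have := congrArg Subtype.val (congrFun he ⟨t, ht⟩)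
        simp only [g, ← hx₁d, ← hx₂d, commutatorElement_def] at this
        rw [SetLike.mem_coe, Subgroup.mem_centralizer_singleton_iff]
        have h' : x₁ * t * x₁⁻¹ = x₂ * t * x₂⁻¹ := mul_right_cancel this
        calc t * (x₂⁻¹ * x₁) = x₂⁻¹ * (x₂ * t * x₂⁻¹) * x₁ := by group
          _ = x₂⁻¹ * x₁ * t := by rw [← h']; group
      have hmem : x₂⁻¹ * x₁ ∈ Z := Subgroup.mem_inf.mpr ⟨G.mul_mem (G.inv_mem hx₂.1) hx₁.1,
        Subgroup.mem_centralizer_iff.mpr fun d hd =>
          Subgroup.mem_centralizer_singleton_iff.mp ((Subgroup.closure_le _).mpr ht hd)⟩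
      refine Subtype.ext (he₁.symm.trans (Eq.trans ?_ he₂))
      exact (QuotientGroup.eq.mpr hmem).symm
    rw [← Nat.card_coe_set_eq]
    refine (Nat.card_le_card_of_injective g hg).trans ?_
    rw [Nat.card_fun, Nat.card_coe_set_eq, Nat.card_coe_set_eq]
    rcases Nat.eq_zero_or_pos S.ncard with h0 | h0
    · rcases Nat.eq_zero_or_pos T.ncard with h1 | h1
      · rw [h1, pow_zero]; exact hN1pos
      · rw [h0, zero_pow h1.ne']; exact Nat.zero_le _
    · exact (Nat.pow_le_pow_right h0 hTcard).trans (Nat.pow_le_pow_left hScard M)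
  set N2 := m * N1.factorial ^ N1 with hN2
  have hCbar : ∀ a ∈ A, a ≠ 1 → Nat.card ((C a).map π : Subgroup (Γ ⧸ Z)) ≤ N2 := by
    intro a ha ha1
    refine card_le_of_generators (Y := π '' ((C a : Set Γ) ∩ X)) ?_ (Nat.factorial_pos N1) ?_
      ((Set.ncard_le_ncard (Set.image_mono Set.inter_subset_right)).trans himg) ?_
    · rw [← MonoidHom.map_closure]
      exact congrArg (Subgroup.map π) (le_antisymm
        ((Subgroup.closure_le _).mpr Set.inter_subset_left)
        (le_closure_wide hq hA hAc hAe hcop inf_le_left (hAC a ha)))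
    · rintro _ ⟨x, ⟨-, hx⟩, rfl⟩
      refine orderOf_dvd_iff_pow_eq_one.mp (Nat.dvd_factorial (orderOf_pos _) ?_)
      rw [← Nat.card_zpowers, ← SetLike.coe_sort_coe, Nat.card_coe_set_eq]
      refine (Set.ncard_le_ncard ?_).trans himg
      rintro _ ⟨k, rfl⟩
      exact ⟨x ^ k, wideSet_zpow hx k, map_zpow _ _ _⟩
    · rw [← Subgroup.map_commutator]
      exact (Nat.le_of_dvd Nat.card_pos (Subgroup.card_map_dvd _ π)).trans (h a ha ha1)
  have hinjA : ∀ a ∈ A, π a = 1 → a = 1 := fun a ha h1 => by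
    have hdisj := (Subgroup.disjoint_of_coprime_natCard hcopZ).eq_bot
    have : a ∈ A ⊓ Z := ⟨ha, (QuotientGroup.eq_one_iff a).mp h1⟩
    rwa [hdisj, Subgroup.mem_bot] at this
  have hcardA : Nat.card (A.map π : Subgroup (Γ ⧸ Z)) = q ^ 3 := by
    rw [← hA]
    refine (Nat.card_eq_of_bijective (fun a : A => (⟨π a, Subgroup.mem_map_of_mem π a.2⟩ :
      (A.map π : Subgroup (Γ ⧸ Z)))) ⟨fun x y hxy => ?_, ?_⟩).symm
    · have := congrArg Subtype.val hxy
      have h1 := hinjA _ (mul_mem x.2 (inv_mem y.2))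
        (by rw [map_mul, map_inv, mul_inv_eq_one]; exact this)
      exact Subtype.ext (mul_inv_eq_one.mp h1)
    · rintro ⟨_, a, ha, rfl⟩
      exact ⟨⟨a, ha⟩, rfl⟩
  have hAbc : IsMulCommutative (A.map π : Subgroup (Γ ⧸ Z)) := ⟨⟨by
    rintro ⟨_, a, ha, rfl⟩ ⟨_, b, hb, rfl⟩
    exact Subtype.ext (by simp only [Subgroup.coe_mul, ← map_mul, setLike_mul_comm ha hb])⟩⟩
  have hN2pos : 0 < N2 := Nat.mul_pos hm (pow_pos (Nat.factorial_pos _) _)
  have hGbar : Nat.card (G.map π : Subgroup (Γ ⧸ Z)) ≤ quotientBound q m := by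
    have : (G.map π).Normal := Subgroup.Normal.map inferInstance _ (QuotientGroup.mk'_surjective Z)
    refine le_trans (card_le_of_centralizer_le (A := A.map π) hAbc
      (not_isCyclic_of_exponent hq hcardA ?_) Subgroup.le_normalizer_of_normal ?_ hN2pos ?_) ?_
    · rintro _ ⟨a, ha, rfl⟩
      rw [← map_pow, hAe a ha, map_one]
    · rw [hcardA, ← hA]
      exact hcop.coprime_dvd_right (Subgroup.card_map_dvd _ π)
    · rintro _ ⟨a, ha, rfl⟩ hne
      have ha1 : a ≠ 1 := fun e => hne (by rw [e, map_one])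
      have hza : (Nat.card (Subgroup.zpowers a)).Coprime (Nat.card Z) :=
        coprime_of_le (Subgroup.zpowers_le_of_mem ha) le_rfl hcopZ
      have e := map_inf_centralizer (A := Subgroup.zpowers a) (G := G) (N := Z) inf_le_left hza
        (Or.inl (isSolvable_zpowers a))
      have e1 : Subgroup.centralizer ((Subgroup.zpowers a : Subgroup Γ) : Set Γ) =
          Subgroup.centralizer ({a} : Set Γ) := by
        rw [Subgroup.zpowers_eq_closure, Subgroup.centralizer_closure]
      have e2 : Subgroup.centralizer (((Subgroup.zpowers a).map π : Subgroup (Γ ⧸ Z)) : Set (Γ ⧸ Z)) =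
          Subgroup.centralizer ({π a} : Set (Γ ⧸ Z)) := by
        rw [MonoidHom.map_zpowers, Subgroup.zpowers_eq_closure, Subgroup.centralizer_closure]
      rw [e1, e2] at e
      rw [← e]
      exact hCbar a ha ha1
    · rw [hcardA]
      exact le_rfl
  -- the order of `D`
  have hDab : Nat.card D ≤ Nat.card (⁅D, D⁆ : Subgroup Γ) * m.factorial ^ M := by
    refine card_le_of_generators (Y := T) rfl (Nat.factorial_pos m) ?_ hTcard le_rfl
    rintro t ⟨⟨a, ha, ha1, ht⟩, -⟩
    refine orderOf_dvd_iff_pow_eq_one.mp (Nat.dvd_factorial (orderOf_pos _) ?_)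
    rw [← Nat.card_zpowers]
    exact (Subgroup.card_le_of_le (Subgroup.zpowers_le_of_mem ht)).trans (h a ha ha1)
  have hidx : (Subgroup.center D).index ≤ quotientBound q m := by
    refine le_trans ?_ hGbar
    have hle : (Z.subgroupOf D) ≤ Subgroup.center D := fun x hx => Subgroup.mem_center_iff.mpr
      fun y => Subtype.ext (Subgroup.mem_centralizer_iff.mp (Subgroup.mem_subgroupOf.mp hx).2 y y.2)
    refine (Nat.le_of_dvd (Nat.pos_of_ne_zero Subgroup.index_ne_zero_of_finite)
      (Subgroup.index_dvd_of_le hle)).trans ?_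
    rw [Subgroup.index_eq_card]
    let f : D →* (G.map π : Subgroup (Γ ⧸ Z)) :=
      (π.comp D.subtype).codRestrict _ fun x => Subgroup.mem_map_of_mem π (hDG x.2)
    have hker : f.ker = Z.subgroupOf D := by
      ext x
      simp [f, MonoidHom.mem_ker, Subtype.ext_iff, hπ, Subgroup.mem_subgroupOf]
    rw [← hker]
    exact Nat.card_le_card_of_injective _ (QuotientGroup.kerLift_injective f)
  have hset : Nat.card (commutatorSet D) ≤ quotientBound q m * quotientBound q m := by
    refine le_trans ?_ (Nat.mul_le_mul hidx hidx)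
    rw [Subgroup.index_eq_card, ← Nat.card_prod]
    refine Nat.card_le_card_of_surjective
      (fun p : (D ⧸ Subgroup.center D) × (D ⧸ Subgroup.center D) =>
        (⟨⁅p.1.out, p.2.out⁆, ⟨_, _, rfl⟩⟩ : commutatorSet D)) ?_
    rintro ⟨_, x, y, rfl⟩
    refine ⟨(QuotientGroup.mk x, QuotientGroup.mk y), Subtype.ext ?_⟩
    obtain ⟨z, hz⟩ := QuotientGroup.mk_out_eq_mul (Subgroup.center D) x
    obtain ⟨w, hw⟩ := QuotientGroup.mk_out_eq_mul (Subgroup.center D) y
    simp only [hz, hw, commutatorElement_def, mul_inv_rev]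
    have hz' : ∀ g : D, Commute (z : D) g := fun g => (Subgroup.mem_center_iff.mp z.2 g).symm
    have hw' : ∀ g : D, Commute (w : D) g := fun g => (Subgroup.mem_center_iff.mp w.2 g).symm
    calc x * (z : D) * (y * (w : D)) * ((z : D)⁻¹ * x⁻¹) * ((w : D)⁻¹ * y⁻¹)
        = x * ((z : D) * (y * (w : D))) * (z : D)⁻¹ * x⁻¹ * (w : D)⁻¹ * y⁻¹ := by group
      _ = x * y * ((w : D) * x⁻¹) * (w : D)⁻¹ * y⁻¹ := by rw [(hz' (y * w)).eq]; group
      _ = x * y * x⁻¹ * y⁻¹ := by rw [(hw' x⁻¹).eq]; group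
  have hD' : Nat.card (⁅D, D⁆ : Subgroup Γ) ≤
      (Finset.range (quotientBound q m * quotientBound q m + 1)).sup Subgroup.cardCommutatorBound := by
    rw [← Subgroup.map_subtype_commutator, Subgroup.card_map_of_injective D.subtype_injective]
    refine (Subgroup.card_commutator_le_of_finite_commutatorSet (G := D)).trans ?_
    exact Finset.le_sup (Finset.mem_range.mpr (Nat.lt_succ_of_le hset))
  exact (Subgroup.card_le_of_le hGD).trans (hDab.trans (Nat.mul_le_mul_right _ hD'))

end CfsgLib.CoprimeDerived
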